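import Cfsg.Agent.KnownB.D4.Out
import Cfsg.Agent.KnownB.Proj.Orth.PlusSpinor
import Cfsg.Agent.KnownB.Proj.EquivTransport
import Cfsg.Agent.Chev.D4Adjoint

/-! The isomorphism `D₄(F) ≅ PΩ₈⁺(F)` with its values on root elements. -/

set_option autoImplicit false

universe u

namespace Cfsg.Agent.KnownB.D4

open Cfsg.Lie Cfsg.Agent.Chev Cfsg.Agent.Chev.D4Q
open scoped Matrix MatrixGroups

variable {F : Type u} [Field F]

/-- The isomorphism, pairing `Tr r t` with the root element. -/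
theorem exists_equiv_spec :
    ∃ (C : Cert.{u} chevD4)
      (e : Cfsg.POmega F (Cfsg.quadFormPlus 4 F) ≃* ↥(chevD4.group F)),
      ∀ (r : Fin 24) (t : F) (h : Tr r t ∈ Cfsg.Omega F (Cfsg.quadFormPlus 4 F)),
        ((e (QuotientGroup.mk ⟨Tr r t, h⟩) : ↥(chevD4.group F)) : GL chevD4.Idx F) = C.xu r t := by
  classical
  obtain ⟨C⟩ := Cfsg.Agent.Chev.nonempty_cert.{u} (D := chevD4) (by simp)
  obtain ⟨M, hM⟩ := Cfsg.Agent.Chev.exists_cox (D := chevD4) (by simp)
  obtain ⟨pa, hpa⟩ := Cfsg.Agent.Chev.exists_tree (D := chevD4) (by simp)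
  obtain ⟨hsimple, hna⟩ := C.isSimple_group hM hpa (by decide) (C.commutator_eq_top
    (C.group_perfect (F := F) fun r hr hd => Or.inl (Cfsg.Agent.Chev.sumUnit_of_dom (by simp) r hr hd)))
  set R := rel F C
  set G := chevD4.group F
  have hsnd : ∀ p ∈ R, p.2 ∈ G := fun p hp => by
    have h : p.2 ∈ R.map (MonoidHom.snd (O8 F) (GL chevD4.Idx F)) :=
      Subgroup.mem_map_of_mem (MonoidHom.snd (O8 F) (GL chevD4.Idx F)) hp
    rwa [map_snd_rel C] at h
  have hlift : ∀ g : G, ∃ p ∈ R, p.2 = (g : GL chevD4.Idx F) := fun g => by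
    have h : (g : GL chevD4.Idx F) ∈ R.map (MonoidHom.snd (O8 F) (GL chevD4.Idx F)) := by
      rw [map_snd_rel C]
      exact g.2
    obtain ⟨p, hp, e⟩ := h
    exact ⟨p, hp, e⟩
  have hfst : ∀ p ∈ R, p.1 ∈ Cfsg.Omega F (Cfsg.quadFormPlus 4 F) := fun p hp => by
    rw [omega_eq_rootSub, ← map_fst_rel C]
    exact Subgroup.mem_map_of_mem (MonoidHom.fst _ _) hp
  -- the kernel of the first projection
  let N2 : Subgroup G :=
    { carrier := {M | ((1 : O8 F), (M : GL chevD4.Idx F)) ∈ R}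
      one_mem' := one_mem R
      mul_mem' := fun {a b} (ha : ((1 : O8 F), (a : GL chevD4.Idx F)) ∈ R) (hb : ((1 : O8 F), (b : GL chevD4.Idx F)) ∈ R) => by
        show ((1 : O8 F), ((a * b : G) : GL chevD4.Idx F)) ∈ R
        simpa using mul_mem ha hb
      inv_mem' := fun {a} (ha : ((1 : O8 F), (a : GL chevD4.Idx F)) ∈ R) => by
        show ((1 : O8 F), ((a⁻¹ : G) : GL chevD4.Idx F)) ∈ R
        simpa using inv_mem ha }
  have hN2 : N2.Normal := ⟨fun x hx g => by
    obtain ⟨p, hp, hpg⟩ := hlift g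
    have h := mul_mem (mul_mem hp hx) (inv_mem hp)
    obtain ⟨g1, g2⟩ := p
    subst hpg
    show ((1 : O8 F), ((g * x * g⁻¹ : G) : GL chevD4.Idx F)) ∈ R
    simpa using h⟩
  have hbot : N2 = ⊥ := by
    refine (hsimple.eq_bot_or_eq_top_of_normal N2 hN2).resolve_right fun htop => ?_
    have hm : (⟨C.xu 18 (1 : F), C.xu_mem_group _ _⟩ : G) ∈ N2 := htop ▸ Subgroup.mem_top _
    have h1 := rel_le_inter C hm (Pi.single (Sum.inr ⟨14, by decide⟩) (1 : F))
    have h2 := gen_inter C (18 : Fin 24) (1 : F) (Pi.single (Sum.inr ⟨14, by decide⟩) (1 : F))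
    simp only [OneMemClass.coe_one, Units.val_one, Matrix.one_mul, Matrix.mul_one] at h1
    change ((Tr (18 : Fin 24) (1 : F)).1 : Matrix I8 I8 F) * pim _ =
      pim ((C.xu 18 (1 : F) : Matrix chevD4.Idx chevD4.Idx F) *ᵥ _) * (Tr (18 : Fin 24) (1 : F)).1.1 at h2
    rw [← h1, pim_single, Tr_val, one_smul] at h2
    simp only [Matrix.add_mul, Matrix.mul_add, Matrix.one_mul, Matrix.mul_one, add_right_inj] at h2
    have hz : red (F := F) (dR 18 * dB 18 - dB 18 * dR 18) = 0 := by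
      rw [map_sub, map_mul, map_mul, sub_eq_zero]
      exact h2
    have hz' : (((dR 18 * dB 18 - dB 18 * dR 18) (.inl 0) (.inl 2) : ℤ) : F) = 0 :=
      congrFun (congrFun hz (.inl 0)) (.inl 2)
    have hv : (dR 18 * dB 18 - dB 18 * dR 18) (.inl 0) (.inl 2) = lmul 18 (bN 18) 0 2 - rmul 18 (bN 18) 0 2 :=
      congrArg₂ (· - ·) (dR_mul (r := 18) (by norm_num) (bN 18) (.inl 0) (.inl 2))
        (mul_dR (r := 18) (by norm_num) (bN 18) (.inl 0) (.inl 2))
    rw [hv] at hz'
    rcases dR_comm_entry with e | e <;> simp [e] at hz'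
  have hN2' : ∀ p ∈ R, p.1 = 1 → p.2 = 1 := fun p hp h1 => by
    have : (⟨p.2, hsnd p hp⟩ : G) ∈ N2 := by
      show ((1 : O8 F), p.2) ∈ R
      rw [← h1]; exact hp
    rw [hbot, Subgroup.mem_bot] at this
    exact congrArg Subtype.val this
  set Ω := Cfsg.Omega F (Cfsg.quadFormPlus 4 F)
  let ψ : R →* Ω := MonoidHom.codRestrict ((MonoidHom.fst _ _).comp R.subtype) Ω fun p => hfst p.1 p.2
  have hψ : Function.Bijective ψ := by
    refine ⟨(injective_iff_map_eq_one ψ).2 fun p hp => ?_, fun g => ?_⟩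
    · have h1 : p.1.1 = 1 := congrArg Subtype.val hp
      exact Subtype.ext (Prod.ext h1 (hN2' p.1 p.2 h1))
    · have hg : g.1 ∈ rootSub F := omega_eq_rootSub (F := F) ▸ g.2
      rw [← map_fst_rel C] at hg
      obtain ⟨p, hp, e⟩ := hg
      exact ⟨⟨p, hp⟩, Subtype.ext e⟩
  let e := MulEquiv.ofBijective ψ hψ
  let φ : Ω →* G :=
    (MonoidHom.codRestrict ((MonoidHom.snd _ _).comp R.subtype) G fun p => hsnd p.1 p.2).comp e.symm.toMonoidHom
  have hpair : ∀ g : Ω, ((g : O8 F), (φ g : GL chevD4.Idx F)) ∈ R := fun g => by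
    have h := (e.symm g).2
    have h1 : (e.symm g).1.1 = (g : O8 F) := congrArg Subtype.val (e.apply_symm_apply g)
    rw [← h1]
    exact h
  have hsurj : Function.Surjective φ := by
    intro g
    obtain ⟨p, hp, hpg⟩ := hlift g
    refine ⟨e ⟨p, hp⟩, Subtype.ext ?_⟩
    show ((e.symm (e ⟨p, hp⟩)).1.2) = _
    rw [e.symm_apply_apply]
    exact hpg
  have hker : φ.ker = Subgroup.center Ω := by
    ext g
    rw [MonoidHom.mem_ker, Subgroup.mem_center_iff]
    constructor
    · intro hg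
      have h := rel_le_inter C (hpair g)
      rw [hg] at h
      have hcomm : ∀ r : Fin 24, Commute (g.1.1.1 : Matrix I8 I8 F) (red (dR r)) := fun r => by
        have h1 := h (Pi.single (Sum.inr ⟨r, r.isLt⟩) 1)
        simp only [OneMemClass.coe_one, Units.val_one, Matrix.one_mulVec, pim_single] at h1
        have e' : dB (idxN chevD4 (Sum.inr ⟨(r : ℕ), r.isLt⟩)) = dR r := by
          rfl
        rwa [e'] at h1
      intro x
      suffices hle : rootSub F ≤ Subgroup.centralizer {(g : O8 F)} by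
        exact Subtype.ext (Subgroup.mem_centralizer_singleton_iff.1 (hle (omega_eq_rootSub (F := F) ▸ x.2)))
      rw [← map_fst_rel C, rel, MonoidHom.map_closure, Subgroup.closure_le]
      rintro _ ⟨_, ⟨r, t, rfl⟩, rfl⟩
      refine Subgroup.mem_centralizer_singleton_iff.2 (Subtype.ext (Units.ext ?_))
      show ((Tr r t).1 : Matrix I8 I8 F) * g.1.1.1 = g.1.1.1 * (Tr r t).1.1
      rw [Tr_val, Matrix.add_mul, Matrix.mul_add, Matrix.smul_mul, Matrix.mul_smul, (hcomm r).eq,
        Matrix.one_mul, Matrix.mul_one]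
    · intro hg
      have hc : φ g ∈ Subgroup.center G := by
        rw [Subgroup.mem_center_iff]
        intro y
        obtain ⟨x, rfl⟩ := hsurj y
        rw [← map_mul, ← map_mul, hg x]
      rcases hsimple.eq_bot_or_eq_top_of_normal _ (inferInstance : (Subgroup.center ↥G).Normal) with h | h
      · rwa [h, Subgroup.mem_bot] at hc
      · exact absurd (Subgroup.center_eq_top_iff.1 h) hna
  refine ⟨C, (QuotientGroup.quotientMulEquivOfEq hker.symm).trans
    (QuotientGroup.quotientKerEquivOfSurjective φ hsurj), fun r t h => ?_⟩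
  have h1 : (Tr r t, C.xu r t) ∈ R := Subgroup.subset_closure ⟨r, t, rfl⟩
  have h2 := hpair ⟨Tr r t, h⟩
  show (φ ⟨Tr r t, h⟩ : GL chevD4.Idx F) = C.xu r t
  have h3 := mul_mem h2 (inv_mem h1)
  have h4 := hN2' _ h3 (mul_inv_cancel _)
  exact mul_inv_eq_one.mp h4

end Cfsg.Agent.KnownB.D4
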