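import Cfsg.Agent.KnownB.D4.Iso

/-! `Inndiag PΩ₈⁺(F)` corresponds to inner times diagonal, so it is normal in the automorphism group. -/

set_option autoImplicit false
set_option maxHeartbeats 1000000

universe u

namespace Cfsg.Agent.KnownB.D4

open Cfsg.Lie Cfsg.Agent.Chev Cfsg.Agent.Chev.D4Q Cfsg.Agent.LeadWork.Steinberg
open Cfsg.Agent.KnownB.Proj.Orth
open Cfsg.Agent.Forms (qPlus)
open scoped Matrix MatrixGroups

variable {F : Type u} [Field F] [Fintype F]

section KerDiag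

variable {m : ℕ}

/-- The class-preserving similitudes act as inner times diagonal automorphisms. -/
theorem ker_le_inn_diag (hm : 4 ≤ m) (g : GO (qPlus m F)) (hg : ptyPlus m g = 1) :
    ∃ a c, A (qPlus m F) g * (A (qPlus m F) (diagGO m a c))⁻¹ ∈
      Cfsg.Inn (Cfsg.POmega F ⇑(qPlus m F)) := by
  have hm1 : 1 ≤ m := by omega
  have hV := exists_ne_qPlus (F := F) (m := m) hm1
  set c := sim hV g
  obtain ⟨s, hs⟩ : g * (diagGO m 1 c)⁻¹ ∈ (isoInc (qPlus m F)).range := by
    rw [← sim_ker hV, MonoidHom.mem_ker, map_mul, map_inv, sim_diagGO, mul_inv_cancel]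
  have hsp : ptyPlus m (isoInc (qPlus m F) s) = 1 := by
    rw [hs, map_mul, map_inv, ptyPlus_diagGO hm1, hg, inv_one, one_mul]
  have hg' : g = isoInc (qPlus m F) s * diagGO m 1 c := by rw [hs, inv_mul_cancel_right]
  have fin : ∀ (t : Cfsg.isometryGroup F ⇑(qPlus m F)) (a : Fin m → Fˣ),
      s = t * diagIso hm1 a →
      A (qPlus m F) (isoInc _ t) ∈ Cfsg.Inn (Cfsg.POmega F ⇑(qPlus m F)) →
      ∃ a c, A (qPlus m F) g * (A (qPlus m F) (diagGO m a c))⁻¹ ∈
        Cfsg.Inn (Cfsg.POmega F ⇑(qPlus m F)) := by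
    intro t a ht hi
    refine ⟨a, c, ?_⟩
    have h1 : g = isoInc (qPlus m F) t * diagGO m a c := by
      rw [hg', ht, map_mul, mul_assoc]
      congr 1
      rw [isoInc_diagIso, ← diagGO_mul, mul_one, one_mul]
    rw [h1, map_mul, mul_inv_cancel_right]
    exact hi
  by_cases h2 : (2 : F) = 0
  · refine fin s 1 (by rw [map_one, mul_one]) ?_
    rw [Inn_eq_map]
    exact ⟨_, ⟨s, par_mem_omega_two (isPar_plus hm1) h2 Forms.qPlus_nondegenerate (by simp; omega)
      s hsp, rfl⟩, rfl⟩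
  have hdet : Forms.orthDet (qPlus m F) (Forms.isometryEquiv _ s) = 1 := by
    have h := ((isPar_plus (F := F) hm1).det h2 (isoInc _ s)).mpr hsp
    rw [show sim hV (isoInc (qPlus m F) s) = 1 by
      rw [← MonoidHom.mem_ker, sim_ker]; exact ⟨s, rfl⟩, one_pow] at h
    refine Units.ext ?_
    rw [Forms.det_isometryEquiv]
    exact congrArg Units.val h
  by_cases hsn : Forms.spinor (qPlus m F) h2 (Forms.isometryEquiv _ s) = 1
  · exact fin s 1 (by rw [map_one, mul_one]) (A_iso_mem_inn hm1 h2 s hdet hsn)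
  obtain ⟨u, hu⟩ := exists_nonsquare_unit (F := F) h2
  set a : Fin m → Fˣ := Pi.mulSingle ⟨0, hm1⟩ u with ha
  refine fin (s * (diagIso hm1 a)⁻¹) a (inv_mul_cancel_right _ _).symm
    (A_iso_mem_inn hm1 h2 _ ?_ ?_)
  · rw [map_mul, map_mul, map_inv, map_inv, hdet, orthDet_diagIso, inv_one, one_mul]
  · have hQ := Forms.qPlus_nondegenerate (m := m) (F := F)
    rw [map_mul, map_mul, map_inv, map_inv, ha, diagIso_single, map_mul, map_mul,
      MulEquiv.apply_symm_apply, MulEquiv.apply_symm_apply, (Int.units_eq_one_or _).resolve_left hsn,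
      (Forms.spinor_reflection h2 hQ (by rw [Q_planeAt]; exact Units.ne_zero _)).2
        (by rw [Q_planeAt, Units.val_inv_eq_inv_val]; exact fun h => hu (by simpa using h.inv)),
      (Forms.spinor_reflection h2 hQ (by rw [Q_planeAt]; exact one_ne_zero)).1
        (by rw [Q_planeAt]; exact IsSquare.one)]
    decide

end KerDiag

omit [Fintype F] in
theorem diagGO_mat {m : ℕ} (a : Fin m → Fˣ) (c : Fˣ) :
    ((diagGO m a c).1 : Matrix (Fin m ⊕ Fin m) (Fin m ⊕ Fin m) F) =
      Matrix.diagonal (Sum.elim (fun i => (a i : F) * c) fun i => ((a i)⁻¹ : Fˣ)) := by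
  refine Forms.matrix_ext_mulVec fun v => ?_
  rw [diagGO_apply]
  funext j
  rw [Matrix.mulVec_diagonal]
  rcases j with i | i <;> simp

/-- diagonal entries -/
def entries (a : Fin 4 → Fˣ) (c : Fˣ) : I8 → Fˣ :=
  Sum.elim (fun i => a i * c) fun i => (a i)⁻¹

/-- The value of the character on a root. -/
def chi (a : Fin 4 → Fˣ) (c : Fˣ) (r : Fin 24) : Fˣ :=
  entries a c (rA r).1 * (entries a c (rA r).2.1)⁻¹

omit [Fintype F] in
theorem entries_du (a : Fin 4 → Fˣ) (c : Fˣ) (x : I8) :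
    entries a c (du x) = c * (entries a c x)⁻¹ := by
  rcases x with i | i
  · simp [entries, mul_comm c, mul_assoc]
  · simp [entries, mul_comm c]

omit [Fintype F] in
theorem diag_Tr (a : Fin 4 → Fˣ) (c : Fˣ) (r : Fin 24) (t : F) :
    ((diagGO 4 a c).1 : Matrix I8 I8 F) * ((Tr r t).1 : Matrix I8 I8 F) =
      ((Tr r ((chi a c r : F) * t)).1 : Matrix I8 I8 F) * ((diagGO 4 a c).1 : Matrix I8 I8 F) := by
  rw [Tr_val, Tr_val, red_dR r.isLt, diagGO_mat, Matrix.mul_add, Matrix.add_mul, Matrix.mul_one,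
    Matrix.one_mul, smul_smul, smul_smul, Matrix.mul_smul, Matrix.smul_mul]
  congr 1
  have hd : (Sum.elim (fun i => (a i : F) * c) fun i => (((a i)⁻¹ : Fˣ) : F)) =
      fun x => (entries a c x : F) := by
    funext x; rcases x with i | i <;> simp [entries]
  rw [hd, chi]
  set p := (rA r).1
  set q := (rA r).2.1
  ext i l
  rw [Matrix.smul_apply, Matrix.smul_apply, Matrix.diagonal_mul, Matrix.mul_diagonal]
  simp only [eT, Matrix.of_apply, smul_eq_mul]
  have hp := (entries a c p).ne_zero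
  have hq := (entries a c q).ne_zero
  have hc := c.ne_zero
  have h1 : (entries a c (du q) : F) = (c : F) * (entries a c q : F)⁻¹ := by
    rw [entries_du, Units.val_mul, Units.val_inv_eq_inv_val]
  have h2 : (entries a c (du p) : F) = (c : F) * (entries a c p : F)⁻¹ := by
    rw [entries_du, Units.val_mul, Units.val_inv_eq_inv_val]
  rw [Units.val_mul, Units.val_inv_eq_inv_val]
  split_ifs with hA hB hB
  · ring
  · obtain ⟨rfl, rfl⟩ := hA
    field_simp
  · obtain ⟨rfl, rfl⟩ := hB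
    rw [h1, h2]
    field_simp
  · ring

theorem simple_neg_table (i : Fin chevD4.rank) :
    ((rA (chevD4.neg (chevD4.simple i))).1 = (rA (chevD4.simple i)).2.1 ∧
      (rA (chevD4.neg (chevD4.simple i))).2.1 = (rA (chevD4.simple i)).1) ∨
    ((rA (chevD4.neg (chevD4.simple i))).1 = du (rA (chevD4.simple i)).1 ∧
      (rA (chevD4.neg (chevD4.simple i))).2.1 = du (rA (chevD4.simple i)).2.1) := by
  revert i; decide +kernel

omit [Fintype F] in
theorem chi_neg (a : Fin 4 → Fˣ) (c : Fˣ) (i : Fin chevD4.rank) {s s' : Fin 24}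
    (hs : (s : ℕ) = chevD4.simple i) (hs' : (s' : ℕ) = chevD4.neg (chevD4.simple i)) :
    chi a c s' = (chi a c s)⁻¹ := by
  unfold chi
  rw [hs, hs']
  rcases simple_neg_table i with ⟨e1, e2⟩ | ⟨e1, e2⟩ <;> rw [e1, e2]
  · group
  · rw [entries_du, entries_du]
    rw [_root_.mul_inv_rev, _root_.mul_inv_rev, inv_inv]
    rw [show c * (entries a c (rA (chevD4.simple i)).1)⁻¹ *
        (entries a c (rA (chevD4.simple i)).2.1 * c⁻¹) =
      (entries a c (rA (chevD4.simple i)).2.1 * (entries a c (rA (chevD4.simple i)).1)⁻¹) *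
        (c * c⁻¹) by ac_rfl, mul_inv_cancel, mul_one]

/-- The simple roots as indices. -/
def sIdx (i : Fin chevD4.rank) : Fin 24 :=
  ⟨chevD4.simple i, (by decide +kernel : ∀ i : Fin chevD4.rank, chevD4.simple i < 24) i⟩

/-- Their negatives. -/
def nIdx (i : Fin chevD4.rank) : Fin 24 :=
  ⟨chevD4.neg (chevD4.simple i),
    (by decide +kernel : ∀ i : Fin chevD4.rank, chevD4.neg (chevD4.simple i) < 24) i⟩

theorem rA_simple : ∀ i : Fin 4,
    ((rA (chevD4.simple i)).1, (rA (chevD4.simple i)).2.1) =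
      ![((Sum.inl 0 : I8), (Sum.inl 1 : I8)), (Sum.inl 1, Sum.inl 2), (Sum.inl 2, Sum.inl 3),
        (Sum.inl 2, Sum.inr 3)] i := by decide +kernel

omit [Fintype F] in
theorem exists_chi (v : Fin chevD4.rank → Fˣ) : ∃ a c, ∀ i, chi a c (sIdx i) = v i := by
  let w : Fin 4 → Fˣ := v
  refine ⟨![w 0 * w 1 * w 2, w 1 * w 2, w 2, 1], w 3 * (w 2)⁻¹, fun i => ?_⟩
  show chi _ _ (sIdx i) = w i
  unfold chi sIdx
  have h1 := congrArg Prod.fst (rA_simple i)
  have h2 := congrArg Prod.snd (rA_simple i)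
  dsimp only at h1 h2 ⊢
  rw [h1, h2]
  revert i
  intro i
  have hi : ∀ j : Fin 4, j = 0 ∨ j = 1 ∨ j = 2 ∨ j = 3 := by decide
  rcases hi i with rfl | rfl | rfl | rfl <;> intros <;>
    simp [entries, mul_assoc, mul_comm, mul_left_comm]

omit [Fintype F] in
theorem Tr_mem_omega (r : Fin 24) (t : F) : Tr r t ∈ Cfsg.Omega F (Cfsg.quadFormPlus 4 F) := by
  rw [omega_eq_rootSub]; exact Tr_mem r t

/-- The isomorphism on any presentation of the form. -/
theorem exists_equiv_model (Qf : (I8 → F) → F) (hQf : Qf = Cfsg.quadFormPlus 4 F) :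
    ∃ (C : Cert.{u} chevD4) (e : Cfsg.POmega F Qf ≃* ↥(chevD4.group F)),
      (∀ (r : Fin 24) (t : F), ∃ g : Cfsg.Omega F Qf, (g.1.1 : GL I8 F) = (Tr r t).1) ∧
      ∀ (r : Fin 24) (t : F) (g : Cfsg.Omega F Qf), (g.1.1 : GL I8 F) = (Tr r t).1 →
        ((e (QuotientGroup.mk g) : ↥(chevD4.group F)) : GL chevD4.Idx F) = C.xu r t := by
  subst hQf
  obtain ⟨C, e, he⟩ := exists_equiv_spec (F := F)
  refine ⟨C, e, fun r t => ⟨⟨Tr r t, Tr_mem_omega r t⟩, rfl⟩, fun r t g hg => ?_⟩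
  have : g = ⟨Tr r t, Tr_mem_omega r t⟩ := Subtype.ext (Subtype.ext hg)
  rw [this]
  exact he r t _

/-- The transported diagonal automorphisms. -/
theorem congr_diag (C : Cert.{u} chevD4)
    (e : Cfsg.POmega F ⇑(qPlus 4 F) ≃* ↥(chevD4.group F))
    (hex : ∀ (r : Fin 24) (t : F), ∃ g : Cfsg.Omega F ⇑(qPlus 4 F), (g.1.1 : GL I8 F) = (Tr r t).1)
    (he : ∀ (r : Fin 24) (t : F) (g : Cfsg.Omega F ⇑(qPlus 4 F)), (g.1.1 : GL I8 F) = (Tr r t).1 →
      ((e (QuotientGroup.mk g) : ↥(chevD4.group F)) : GL chevD4.Idx F) = C.xu r t)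
    (a : Fin 4 → Fˣ) (c : Fˣ) :
    MulAut.congr e (A (qPlus 4 F) (diagGO 4 a c)) =
      diagHom C hst (fun i => chi a c (sIdx i)) := by
  have key : ∀ (r : Fin 24) (t : F),
      apG (MulAut.congr e (A (qPlus 4 F) (diagGO 4 a c))) (C.xu r t) =
        C.xu r ((chi a c r : F) * t) := by
    intro r t
    obtain ⟨g₀, h0⟩ := hex r t
    obtain ⟨g₁, h1⟩ := hex r ((chi a c r : F) * t)
    have hx : (⟨C.xu r t, C.xu_mem_group _ _⟩ : ↥(chevD4.group F)) =
        e (QuotientGroup.mk g₀) := Subtype.ext (he r t g₀ h0).symm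
    rw [apG_eq _ (C.xu_mem_group _ _), hx, ← he r _ g₁ h1]
    refine congrArg Subtype.val ?_
    show e (A (qPlus 4 F) (diagGO 4 a c) (e.symm (e (QuotientGroup.mk _)))) = _
    rw [MulEquiv.symm_apply_apply]
    refine congrArg e ?_
    refine congrArg QuotientGroup.mk (Subtype.ext (Subtype.ext ?_))
    show (diagGO 4 a c).1 * g₀.1.1 * (diagGO 4 a c).1⁻¹ = g₁.1.1
    rw [h0, h1]
    rw [mul_inv_eq_iff_eq_mul]
    exact Units.ext (diag_Tr a c r t)
  refine aut_ext C fun i t => ⟨?_, ?_⟩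
  · rw [diagHom_pos]
    exact key (sIdx i) t
  · rw [diagHom_neg, ← chi_neg a c i (s := sIdx i) (s' := nIdx i) rfl rfl]
    exact key (nIdx i) t

/-- `Inndiag PΩ₈⁺` is normal. -/
theorem inndiag_normal :
    ((ptyPlus 4).ker.map (A (qPlus 4 F))).Normal := by
  obtain ⟨C, e, hex, he⟩ := exists_equiv_model (F := F) ⇑(qPlus 4 F) (Forms.coe_qPlus 4 F)
  set Φ := MulAut.congr e with hΦ
  set J := Cfsg.Inn ↥(chevD4.group F) ⊔ (diagHom (F := F) C hst).range with hJ
  have hInn := Cfsg.Agent.KnownB.Proj.inn_map_congr e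
  have himg : ((ptyPlus 4).ker.map (A (qPlus 4 F))).map Φ.toMonoidHom = J := by
    refine le_antisymm ?_ (sup_le ?_ ?_)
    · rintro _ ⟨_, ⟨g, hg, rfl⟩, rfl⟩
      obtain ⟨a, c, hi⟩ := ker_le_inn_diag (le_refl 4) g hg
      rw [← inv_mul_cancel_right (A (qPlus 4 F) g) (A (qPlus 4 F) (diagGO 4 a c)), map_mul]
      refine Subgroup.mul_mem_sup (hInn ▸ Subgroup.mem_map_of_mem _ hi) ?_
      show MulAut.congr e (A (qPlus 4 F) (diagGO 4 a c)) ∈ _
      rw [congr_diag C e hex he]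
      exact ⟨_, rfl⟩
    · rw [← hInn]
      refine Subgroup.map_mono ?_
      rw [Inn_eq_map]
      refine Subgroup.map_mono ?_
      rintro _ ⟨s, hs, rfl⟩
      have hhom : ((ptyPlus 4).comp (isoInc (qPlus 4 F))) s = 1 :=
        Abelianization.commutator_subset_ker _ hs
      exact hhom
    · rintro _ ⟨v, rfl⟩
      obtain ⟨a, c, hv⟩ := exists_chi v
      refine ⟨_, ⟨diagGO 4 a c, ptyPlus_diagGO (by norm_num) a c, rfl⟩, ?_⟩
      show MulAut.congr e (A (qPlus 4 F) (diagGO 4 a c)) = _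
      rw [congr_diag C e hex he, funext hv]
  have hJn : J.Normal := by
    have hIn : (Cfsg.Inn ↥(chevD4.group F)).Normal := inferInstance
    have hR : ∀ (θ : MulAut ↥(chevD4.group F)) (v : Fin chevD4.rank → Fˣ),
        θ * diagHom C hst v * θ⁻¹ ∈ J := by
      intro θ v
      obtain ⟨g0, d, g, f, hd, hg, hf, hθ⟩ := exists_decomposition mem_list θ
      obtain ⟨w, rfl⟩ := (isDiagonalAut_iff C hst).mp hd
      obtain ⟨π, hπ⟩ := (isGraphAut_iff C).mp hg
      obtain ⟨σ, rfl⟩ := (isFieldAut_iff C).mp hf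
      have e1 : θ = MulAut.conj g0 * (diagHom C hst w * g * fieldHom chevD4 F σ) :=
        MulEquiv.ext fun y => hθ y
      set v₁ : Fin chevD4.rank → Fˣ := fun i => Units.map σ.toRingHom.toMonoidHom (v i)
      obtain ⟨v₂, h2⟩ := hπ.diagHom_comm C hst v₁
      have e2 : θ * diagHom C hst v * θ⁻¹ =
          MulAut.conj g0 * (diagHom C hst w * diagHom C hst v₂ * (diagHom C hst w)⁻¹) *
            (MulAut.conj g0)⁻¹ := by
        rw [e1]
        calc _ = MulAut.conj g0 * diagHom C hst w *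
              (g * (fieldHom chevD4 F σ * diagHom C hst v * (fieldHom chevD4 F σ)⁻¹) * g⁻¹) *
              (diagHom C hst w)⁻¹ * (MulAut.conj g0)⁻¹ := by group
          _ = _ := by
            rw [fieldHom_diagHom C hst σ v, mul_inv_cancel_right, h2, mul_inv_cancel_right]
            group
      rw [e2]
      have hc : MulAut.conj g0 ∈ J := Subgroup.mem_sup_left ⟨g0, rfl⟩
      refine mul_mem (mul_mem hc (Subgroup.mem_sup_right ?_)) (inv_mem hc)
      exact mul_mem (mul_mem ⟨w, rfl⟩ ⟨v₂, rfl⟩) (inv_mem ⟨w, rfl⟩)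
    refine ⟨fun j hj θ => ?_⟩
    have hle : J ≤ J.comap (MulAut.conj θ).toMonoidHom := by
      refine sup_le (fun i hi => Subgroup.mem_sup_left (hIn.conj_mem i hi θ)) ?_
      rintro _ ⟨v, rfl⟩
      exact hR θ v
    exact hle hj
  have h := hJn.comap Φ.toMonoidHom
  rw [← himg, Subgroup.comap_map_eq_self_of_injective Φ.injective] at h
  exact h

end Cfsg.Agent.KnownB.D4
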