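import Cfsg.Agent.LeadWork.SteinbergPerms
import Cfsg.Agent.Chev.TorusOrders
import Cfsg.Agent.KnownB.AutPSL.Twist

/-! The outer automorphism group of the Chevalley group of type `D₄`. -/

set_option autoImplicit false
set_option maxHeartbeats 800000

namespace Cfsg.Agent.KnownB.D4

open Cfsg.Lie Cfsg.Agent.Chev Cfsg.Agent.LeadWork.Steinberg
open scoped Matrix

universe u

variable {F : Type u} [Field F]

theorem mem_list : chevD4 ∈ [chevG2, chevB2, chevD4, chevF4, chevE6, chevE7, chevE8] := by simp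

theorem noLong : NoLong chevD4 := by unfold NoLong; decide +kernel

theorem hst : Cfsg.Agent.Suzuki.ChainSteps chevD4 := Cfsg.Agent.Suzuki.chainSteps mem_list

/-- the outer nodes -/
def outerNode : Fin 3 ≃ {i : Fin chevD4.rank // (i : ℕ) ≠ 1} where
  toFun k := ⟨⟨![0, 2, 3] k, by revert k; decide +kernel⟩, by revert k; decide +kernel⟩
  invFun i := if (i.1 : ℕ) = 0 then 0 else if (i.1 : ℕ) = 2 then 1 else 2
  left_inv := by decide +kernel
  right_inv := by decide +kernel

/-- the symmetries of the diagram -/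
def nodeHom : Equiv.Perm (Fin 3) →* Equiv.Perm (Fin chevD4.rank) :=
  Equiv.Perm.extendDomainHom outerNode

theorem nodeHom_injective : Function.Injective nodeHom := Equiv.Perm.extendDomainHom_injective _

variable (C : Cert.{u} chevD4)

theorem nodeHom_mem (π : Equiv.Perm (Fin 3)) : nodeHom π ∈ graphPerms (F := F) C := by
  rw [graphPerms_D4 C]
  have h : ∀ π : Equiv.Perm (Fin 3), nodeHom π ∈
      ({1, cD4, cD4 * cD4, sD4, sD4 * cD4, sD4 * (cD4 * cD4)} : Finset (Equiv.Perm (Fin chevD4.rank))) := by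
    decide +kernel
  exact h π

theorem exists_nodeHom {π : Equiv.Perm (Fin chevD4.rank)} (h : π ∈ graphPerms (F := F) C) :
    ∃ ρ, nodeHom ρ = π := by
  rw [graphPerms_D4 C] at h
  have h' : ∀ π ∈ ({1, cD4, cD4 * cD4, sD4, sD4 * cD4, sD4 * (cD4 * cD4)} :
      Finset (Equiv.Perm (Fin chevD4.rank))), ∃ ρ, nodeHom ρ = π := by decide +kernel
  exact h' π h

/-- the graph automorphisms -/
noncomputable def graphHom : Equiv.Perm (Fin 3) →* MulAut ↥(chevD4.group F) :=
  MonoidHom.mk' (fun π => (nodeHom_mem C π).choose) fun π ρ =>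
    (nodeHom_mem C (π * ρ)).choose_spec.unique C (by
      rw [map_mul nodeHom]
      exact isGraphOf_mul C noLong (nodeHom_mem C π).choose_spec (nodeHom_mem C ρ).choose_spec)

theorem graphHom_spec (π : Equiv.Perm (Fin 3)) : IsGraphOf C (nodeHom π) (graphHom (F := F) C π) :=
  (nodeHom_mem C π).choose_spec

/-- diagonal outer automorphisms -/
noncomputable def dOut : (Fin chevD4.rank → Fˣ) →* Cfsg.Out ↥(chevD4.group F) :=
  (outHom chevD4 F).comp (diagHom C hst)

/-- graph outer automorphisms -/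
noncomputable def gOut : Equiv.Perm (Fin 3) →* Cfsg.Out ↥(chevD4.group F) :=
  (outHom chevD4 F).comp (graphHom C)

/-- field outer automorphisms -/
noncomputable def fOut : (F ≃+* F) →* Cfsg.Out ↥(chevD4.group F) :=
  (outHom chevD4 F).comp (fieldHom chevD4 F)

theorem gOut_fOut (π : Equiv.Perm (Fin 3)) (σ : F ≃+* F) :
    Commute (gOut C π) (fOut σ) := by
  show _ * _ = _ * _
  simp only [gOut, fOut, MonoidHom.comp_apply, ← map_mul]
  rw [(graphHom_spec C π).fieldHom_comm C σ]

variable [Finite F]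

theorem exists_out (x : Cfsg.Out ↥(chevD4.group F)) :
    ∃ a π σ, x = dOut C a * gOut C π * fOut σ := by
  obtain ⟨a, π, φ, σ, hφ, rfl⟩ := exists_parts C hst mem_list x
  obtain ⟨ρ, rfl⟩ := exists_nodeHom C ⟨φ, hφ⟩
  refine ⟨a, ρ, σ, ?_⟩
  rw [hφ.unique C (graphHom_spec C ρ)]
  rfl

theorem out_eq_one {a : Fin chevD4.rank → Fˣ} {π : Equiv.Perm (Fin 3)} {σ : F ≃+* F}
    (h : dOut C a * gOut C π * fOut σ = 1) : π = 1 ∧ σ = 1 ∧ a ∈ innerChars chevD4 F := by
  simp only [dOut, gOut, fOut, MonoidHom.comp_apply, ← map_mul, outHom_eq_one] at h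
  obtain ⟨h1, h2, h3⟩ := trivial_of_inner C hst coxD4 (graphHom_spec C π) (by decide +kernel) a σ h
  exact ⟨nodeHom_injective (h1.trans nodeHom.map_one.symm), h2, h3⟩

theorem dOut_inner {a : Fin chevD4.rank → Fˣ} (h : a ∈ innerChars chevD4 F) : dOut C a = 1 :=
  outHom_eq_one.mpr (inner_of_innerChars C hst h)

include C in
theorem index_inner [Fintype F] :
    (innerChars chevD4 F).index = (Fintype.card F - 1).gcd 2 * (Fintype.card F - 1).gcd 2 :=
  index_innerChars C coxD4 hst card_diagonalD4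

include C in
theorem card_out_D4 [Fintype F] :
    Nat.card (Cfsg.Out ↥(chevD4.group F)) =
      6 * ((Fintype.card F - 1).gcd 2 * (Fintype.card F - 1).gcd 2) * Nat.card (F ≃+* F) := by
  rw [card_out C hst mem_list, index_inner C, card_graphPerms_D4 C]
  ring

include C in
/-- Characteristic two: `S₃` times the field automorphisms. -/
theorem out_even [Fintype F] (h2 : Even (Fintype.card F)) :
    Nonempty (Cfsg.Out ↥(chevD4.group F) ≃* Equiv.Perm (Fin 3) × (F ≃+* F)) := by
  have hi : innerChars chevD4 F = ⊤ := by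
    rw [← Subgroup.index_eq_one, index_inner C]
    have h1 : (Fintype.card F - 1).gcd 2 = 1 := by
      refine Nat.Coprime.gcd_eq_one ?_
      rw [Nat.coprime_two_right]
      exact Nat.Even.sub_odd Fintype.card_pos h2 odd_one
    rw [h1]
  let Ψ := (gOut (F := F) C).noncommCoprod fOut fun π σ => gOut_fOut C π σ
  refine ⟨(MulEquiv.ofBijective Ψ ⟨?_, fun x => ?_⟩).symm⟩
  · rw [injective_iff_map_eq_one]
    rintro ⟨π, σ⟩ h
    obtain ⟨h1, h3, -⟩ := out_eq_one C (a := 1) (π := π) (σ := σ) (by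
      rw [map_one, one_mul]; exact h)
    exact Prod.ext h1 h3
  · obtain ⟨a, π, σ, rfl⟩ := exists_out C x
    exact ⟨(π, σ), by rw [dOut_inner C (hi ▸ Subgroup.mem_top a), one_mul]; rfl⟩

theorem isSquare_pair_of_inner {a : Fin chevD4.rank → Fˣ} (h : a ∈ innerChars chevD4 F)
    (i j : Fin 3) : IsSquare (a (outerNode i).1 * a (outerNode j).1) := by
  obtain ⟨c, rfl⟩ := h
  let c' : Fin 4 → Fˣ := c
  have key : ∀ i : Fin 3, ∃ s, torusMap Fˣ (cartMat chevD4) c (outerNode i).1 = s * s * (c' 1)⁻¹ := by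
    intro i
    have hM : ∀ (i : Fin 3) (k : Fin 4), chevD4.cartan k (chevD4.simple (outerNode i).1) =
        ![![(2 : ℤ), -1, 0, 0], ![0, -1, 2, 0], ![0, -1, 0, 2]] i k := by
      decide +kernel
    refine ⟨c' (![0, 2, 3] i), ?_⟩
    have e4 : torusMap Fˣ (cartMat chevD4) c (outerNode i).1 =
        ∏ k : Fin 4, c' k ^ chevD4.cartan k (chevD4.simple (outerNode i).1) := rfl
    rw [e4, Fin.prod_univ_four, hM, hM, hM, hM]
    fin_cases i <;> simp [outerNode, zpow_two, pow_two, mul_comm]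
  obtain ⟨s, hs⟩ := key i
  obtain ⟨t, ht⟩ := key j
  exact ⟨s * t * (c' 1)⁻¹, by rw [hs, ht]; ac_rfl⟩

omit [Finite F] in
theorem sq_mem_inner (a : Fin chevD4.rank → Fˣ) : a * a ∈ innerChars chevD4 F := by
  refine ⟨torusMap Fˣ (show Matrix (Fin chevD4.rank) (Fin chevD4.rank) ℤ from
    !![2, 2, 1, 1; 2, 4, 2, 2; 1, 2, 2, 1; 1, 2, 1, 2]) a, ?_⟩
  have hM : (show Matrix (Fin chevD4.rank) (Fin chevD4.rank) ℤ from
      !![2, 2, 1, 1; 2, 4, 2, 2; 1, 2, 2, 1; 1, 2, 1, 2]) * cartMat chevD4 =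
      Matrix.diagonal fun _ => ((2 : ℕ) : ℤ) := by decide +kernel
  rw [← MonoidHom.comp_apply, ← torusMap_mul, hM]
  funext j
  rw [torusMap_diag, pow_two]
  rfl

include C in
/-- Odd characteristic: `S₄` times the field automorphisms. -/
theorem out_odd [Fintype F] (h2 : Odd (Fintype.card F)) :
    Nonempty (Cfsg.Out ↥(chevD4.group F) ≃* Equiv.Perm (Fin 4) × (F ≃+* F)) := by
  classical
  haveI hdn : (dBar (F := F) C hst).Normal := dBar_normal C hst mem_list
  set Γ : Subgroup (Cfsg.Out ↥(chevD4.group F)) := (gOut C).range with hΓ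
  set Dl : Subgroup (Cfsg.Out ↥(chevD4.group F)) := (dOut C).range with hDl
  haveI : Dl.Normal := hdn
  set G0 : Subgroup (Cfsg.Out ↥(chevD4.group F)) := Dl ⊔ Γ with hG0
  have hdis : Disjoint Dl Γ := by
    rw [disjoint_iff, Subgroup.eq_bot_iff_forall]
    rintro _ ⟨⟨a, rfl⟩, ⟨π, hπ⟩⟩
    obtain ⟨-, -, h⟩ := out_eq_one C (a := a) (π := π⁻¹) (σ := 1) (by
      rw [map_inv, hπ, map_one, mul_one, mul_inv_cancel])
    exact dOut_inner C h
  have hmem : ∀ x ∈ G0, ∃ a π, x = dOut C a * gOut C π := by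
    intro x hx
    have hx' : x ∈ ((Dl ⊔ Γ : Subgroup (Cfsg.Out ↥(chevD4.group F))) :
      Set (Cfsg.Out ↥(chevD4.group F))) := hx
    rw [Subgroup.normal_mul] at hx'
    obtain ⟨_, ⟨a, rfl⟩, _, ⟨π, rfl⟩, rfl⟩ := hx'
    exact ⟨a, π, rfl⟩
  have hfield : ∀ (a : Fin chevD4.rank → Fˣ) (σ : F ≃+* F), Commute (dOut C a) (fOut σ) := by
    intro a σ
    set b : Fin chevD4.rank → Fˣ := fun i => Units.map σ.toRingHom.toMonoidHom (a i)
    have h1 : fOut σ * dOut C a = dOut C b * fOut σ := by
      simp only [dOut, fOut, MonoidHom.comp_apply, ← map_mul]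
      rw [fieldHom_diagHom]
    have hb : b * a⁻¹ ∈ innerChars chevD4 F := by
      have hsq : ∀ i, IsSquare (b i * (a i)⁻¹) := fun i => by
        have hidx : (powMonoidHom 2 : Fˣ →* Fˣ).range.index = 2 := by
          rw [IsCyclic.index_powMonoidHom_range, Nat.card_units, Nat.card_eq_fintype_card]
          exact Nat.gcd_eq_right (Nat.dvd_of_mod_eq_zero (by rw [Nat.odd_iff] at h2; omega))
        have hiff : b i ∈ (powMonoidHom 2 : Fˣ →* Fˣ).range ↔
            a i ∈ (powMonoidHom 2 : Fˣ →* Fˣ).range := by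
          constructor
          · rintro ⟨s, hs⟩
            refine ⟨Units.map σ.symm.toRingHom.toMonoidHom s, ?_⟩
            refine Units.ext ?_
            have := congrArg (fun u : Fˣ => σ.symm (u : F)) hs
            simpa [b] using this
          · rintro ⟨s, hs⟩
            exact ⟨Units.map σ.toRingHom.toMonoidHom s, by simp [b, ← hs]⟩
        obtain ⟨s, hs⟩ : b i * (a i)⁻¹ ∈ (powMonoidHom 2 : Fˣ →* Fˣ).range := by
          rw [Subgroup.mul_mem_iff_of_index_two hidx, inv_mem_iff]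
          exact hiff
        exact ⟨s, by rw [← hs]; exact pow_two s⟩
      choose s hs using hsq
      rw [show b * a⁻¹ = s * s from funext hs]
      exact sq_mem_inner s
    have h3 : dOut C b = dOut C a := by
      have := dOut_inner C hb
      rwa [map_mul, map_inv, mul_inv_eq_one] at this
    show _ = _
    rw [h1, h3]
  have hcomm : ∀ (x : G0) (σ : F ≃+* F), Commute (G0.subtype x) (fOut σ) := by
    rintro ⟨x, hx⟩ σ
    obtain ⟨a, π, rfl⟩ := hmem x hx
    exact (hfield a σ).mul_left (gOut_fOut C π σ)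
  let Ψ := G0.subtype.noncommCoprod fOut hcomm
  have hΨ : Function.Bijective Ψ := by
    refine ⟨?_, fun x => ?_⟩
    · rw [injective_iff_map_eq_one]
      rintro ⟨⟨x, hx⟩, σ⟩ h
      obtain ⟨a, π, rfl⟩ := hmem x hx
      obtain ⟨rfl, rfl, h3⟩ := out_eq_one C (a := a) (π := π) (σ := σ) h
      refine Prod.ext (Subtype.ext ?_) rfl
      show (dOut (F := F) C a * gOut (F := F) C 1 : Cfsg.Out ↥(chevD4.group F)) = 1
      rw [map_one, mul_one, dOut_inner C h3]
    · obtain ⟨a, π, σ, rfl⟩ := exists_out C x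
      exact ⟨(⟨dOut C a * gOut C π, Subgroup.mul_mem_sup ⟨a, rfl⟩ ⟨π, rfl⟩⟩, σ), rfl⟩
  have hcard : Nat.card G0 = 24 := by
    have h := Nat.card_congr (MulEquiv.ofBijective Ψ hΨ).toEquiv
    have h1 : (Fintype.card F - 1).gcd 2 = 2 :=
      Nat.gcd_eq_right (Nat.dvd_of_mod_eq_zero (by rw [Nat.odd_iff] at h2; omega))
    rw [Nat.card_prod, card_out_D4 C, h1] at h
    haveI : Finite (F ≃+* F) := Finite.of_injective (fun e => (e : F → F)) DFunLike.coe_injective
    exact Nat.eq_of_mul_eq_mul_right Nat.card_pos h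
  have hker : (MulAction.toPermHom G0 (↥G0 ⧸ Γ.subgroupOf G0)).ker = ⊥ := by
    rw [← Subgroup.normalCore_eq_ker, Subgroup.eq_bot_iff_forall]
    intro x hx
    obtain ⟨π, hπ⟩ := Subgroup.mem_subgroupOf.mp (Subgroup.normalCore_le _ hx)
    have hc : ∀ a : Fin chevD4.rank → Fˣ,
        gOut C π * dOut C a * (gOut C π)⁻¹ * (dOut C a)⁻¹ = 1 := by
      intro a
      refine Subgroup.disjoint_def.mp hdis ?_ ?_
      · exact mul_mem (Subgroup.Normal.conj_mem ‹Dl.Normal› _ (show dOut C a ∈ Dl from ⟨a, rfl⟩) _)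
          (inv_mem (show dOut C a ∈ Dl from ⟨a, rfl⟩))
      · let d : G0 := ⟨dOut C a, Subgroup.mem_sup_left ⟨a, rfl⟩⟩
        have h := (Subgroup.normalCore_le _) ((Subgroup.normalCore_normal (Γ.subgroupOf G0)).conj_mem _
          (inv_mem hx) d)
        have h' : (x : Cfsg.Out ↥(chevD4.group F)) * ((d : Cfsg.Out ↥(chevD4.group F)) *
            (x : Cfsg.Out ↥(chevD4.group F))⁻¹ * (d : Cfsg.Out ↥(chevD4.group F))⁻¹) ∈ Γ :=
          mul_mem (hπ ▸ ⟨π, rfl⟩) (Subgroup.mem_subgroupOf.mp h)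
        rw [← hπ] at h'
        simpa [mul_assoc] using h'
    suffices hπ1 : π = 1 by
      refine Subtype.ext ?_
      rw [← hπ, hπ1, map_one]
      rfl
    by_contra hne
    obtain ⟨i, hi⟩ : ∃ i, π i ≠ i := by
      by_contra hall
      exact hne (Equiv.ext fun i => by simpa using not_exists.mp hall i)
    obtain ⟨c, hcs⟩ : ∃ c : Fˣ, ¬ IsSquare c := by
      by_contra hall
      have hs : Function.Surjective fun x : Fˣ => x * x := fun y => by
        obtain ⟨x, hx⟩ := not_not.mp (not_exists.mp hall y)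
        exact ⟨x, hx.symm⟩
      have hF2 : (2 : F) ≠ 0 := fun e => by
        have hc : ringChar F = 2 := CharP.ringChar_of_prime_eq_zero Nat.prime_two (by exact_mod_cast e)
        have := FiniteField.even_card_iff_char_two.mp hc
        rw [Nat.odd_iff] at h2
        omega
      have h11 : (-1 : Fˣ) = 1 := Finite.injective_iff_surjective.mpr hs (by simp)
      refine hF2 ?_
      have h12 := congrArg Units.val h11
      simp only [Units.val_neg, Units.val_one] at h12
      linear_combination -h12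
    set a : Fin chevD4.rank → Fˣ := Pi.mulSingle (outerNode i).1 c with ha
    obtain ⟨b, hb⟩ := (graphHom_spec (F := F) C π).diagHom_comm C hst a
    have hbv : ∀ j : Fin chevD4.rank, b (nodeHom π j) = a j := by
      intro j
      have := diagHom_pos C hst b (nodeHom π j) (1 : F)
      have h2' := congrArg (fun φ => apG φ (C.xu (chevD4.simple j) (1 : F))) hb
      simp only [apG_mul_aut _ _ (C.xu_mem_group _ _), diagHom_pos, (graphHom_spec (F := F) C π).pos,
        graphExp_noLong noLong, pow_one, mul_one] at h2'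
      exact Units.ext (Cfsg.Agent.LeadWork.ChevField.xu_injective C (C.simple_lt _ (nodeHom π j).isLt) h2').symm
    have h1 : dOut C (b * a⁻¹) = 1 := by
      rw [map_mul, map_inv]
      have h4 := hc a
      have : gOut C π * dOut C a = dOut C b * gOut C π := by
        simp only [gOut, dOut, MonoidHom.comp_apply, ← map_mul, hb]
      rwa [this, mul_inv_cancel_right] at h4
    obtain ⟨-, -, hin⟩ := out_eq_one C (a := b * a⁻¹) (π := 1) (σ := 1) (by
      rw [h1, map_one, map_one, mul_one, mul_one])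
    obtain ⟨k, hki, hkπ⟩ : ∃ k : Fin 3, k ≠ i ∧ k ≠ π i := by
      have : ∀ i j : Fin 3, ∃ k, k ≠ i ∧ k ≠ j := by decide
      exact this i (π i)
    have hne' : ∀ {u v : Fin 3}, u ≠ v → (outerNode u).1 ≠ (outerNode v).1 := fun huv e =>
      huv (outerNode.injective (Subtype.ext e))
    have hnode : ∀ j : Fin 3, nodeHom π (outerNode j).1 = (outerNode (π j)).1 := fun j =>
      Equiv.Perm.extendDomain_apply_image π outerNode j
    have h5 := isSquare_pair_of_inner hin i k
    obtain ⟨j, hj⟩ := π.surjective i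
    have hji : j ≠ i := fun e => hi (e ▸ hj)
    have ei : (b * a⁻¹) (outerNode i).1 = c⁻¹ := by
      have : b (outerNode i).1 = 1 := by
        have h' : b (outerNode (π j)).1 = 1 := by
          rw [← hnode, hbv, ha, Pi.mulSingle_eq_of_ne (hne' hji)]
        rwa [hj] at h' 
      simp [this, ha]
    obtain ⟨l, hl⟩ := π.surjective k
    have hli : l ≠ i := fun e => hkπ (by rw [← hl, e])
    have ek : (b * a⁻¹) (outerNode k).1 = 1 := by
      have : b (outerNode k).1 = 1 := by
        rw [← hl, ← hnode, hbv, ha, Pi.mulSingle_eq_of_ne (hne' hli)]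
      simp [this, ha, hne' hki]
    rw [ei, ek, mul_one] at h5
    exact hcs (by simpa using h5.inv)
  have h4 : Nat.card (↥G0 ⧸ Γ.subgroupOf G0) = 4 := by
    have hg : Nat.card (Γ.subgroupOf G0) = 6 := by
      rw [Nat.card_congr (Subgroup.subgroupOfEquivOfLe (le_sup_right : Γ ≤ G0)).toEquiv, hΓ]
      have hinj : Function.Injective (gOut (F := F) C) := by
        rw [injective_iff_map_eq_one]
        intro π h
        exact (out_eq_one (F := F) C (a := 1) (π := π) (σ := (1 : F ≃+* F)) (by rw [map_one, h, map_one, one_mul, one_mul])).1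
      rw [← Nat.card_congr (MonoidHom.ofInjective hinj).toEquiv, Nat.card_eq_fintype_card,
        Fintype.card_perm, Fintype.card_fin]
      rfl
    have := Subgroup.card_mul_index (Γ.subgroupOf G0)
    rw [hg, hcard] at this
    show (Γ.subgroupOf G0).index = 4
    omega
  haveI : Finite (↥G0 ⧸ Γ.subgroupOf G0) := Nat.finite_of_card_ne_zero (by rw [h4]; norm_num)
  let e4 : (↥G0 ⧸ Γ.subgroupOf G0) ≃ Fin 4 := Finite.equivFinOfCardEq h4
  let χ : G0 →* Equiv.Perm (Fin 4) :=
    (e4.permCongrHom.toMonoidHom).comp (MulAction.toPermHom G0 (↥G0 ⧸ Γ.subgroupOf G0))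
  haveI : Finite G0 := Nat.finite_of_card_ne_zero (by rw [hcard]; norm_num)
  have hχi : Function.Injective χ :=
    e4.permCongrHom.injective.comp ((MonoidHom.ker_eq_bot_iff _).mp hker)
  have hχb : Function.Bijective χ := by
    rw [Nat.bijective_iff_injective_and_card]
    exact ⟨hχi, by rw [hcard, Nat.card_eq_fintype_card, Fintype.card_perm, Fintype.card_fin]; rfl⟩
  exact ⟨(MulEquiv.ofBijective Ψ hΨ).symm.trans
    ((MulEquiv.ofBijective χ hχb).prodCongr (MulEquiv.refl _))⟩

end Cfsg.Agent.KnownB.D4
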