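import Cfsg.Agent.KnownB.D4.Out
import Cfsg.Agent.Chev.D4Adjoint
import Cfsg.Agent.KnownB.Proj.EquivTransport

/-! `Out PΩ₈⁺(F)` from the outer automorphism group of the Chevalley group of type `D₄`. -/

set_option autoImplicit false

namespace Cfsg.Agent.KnownB.D4

open Cfsg.Lie Cfsg.Agent.Chev

universe u

variable {F : Type u} [Field F] [Fintype F]

/-- `|Aut G| = |Out G| |G|` for trivial centre. -/
theorem card_mulAut {G : Type u} [Group G] (hc : Subgroup.center G = ⊥) :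
    Nat.card (MulAut G) = Nat.card (Cfsg.Out G) * Nat.card G := by
  rw [← Subgroup.index_mul_card (Cfsg.Inn G), ← Subgroup.index_eq_card]
  congr 1
  refine (Nat.card_congr (MonoidHom.ofInjective (f := (MulAut.conj : G →* MulAut G)) ?_).toEquiv).symm
  rw [← MonoidHom.ker_eq_bot_iff, Subgroup.eq_bot_iff_forall]
  intro g hg
  have : g ∈ Subgroup.center G := Subgroup.mem_center_iff.mpr fun y => by
    have h := congrArg (fun φ : MulAut G => φ y) hg
    simp only [MulAut.conj_apply, MulAut.one_apply] at h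
    exact (mul_inv_eq_iff_eq_mul.mp h).symm
  rwa [hc, Subgroup.mem_bot] at this

theorem exists_out_equiv :
    Nonempty (Cfsg.Out ↥(chevD4.group F) ≃* Cfsg.Out (Cfsg.POmega F (Cfsg.quadFormPlus 4 F))) := by
  obtain ⟨e⟩ := D4Q.chevD4_equiv_pomega (F := F)
  exact ⟨QuotientGroup.congr _ _ (MulAut.congr e) (Proj.inn_map_congr e)⟩

theorem center_bot : Subgroup.center ↥(chevD4.group F) = ⊥ := by
  obtain ⟨C⟩ := nonempty_cert.{u} (D := chevD4) (by simp)
  rw [Subgroup.eq_bot_iff_forall]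
  intro g hg
  exact Subtype.ext (Cfsg.Agent.LeadWork.ChevField.eq_one_of_commute C coxD4 g.2 fun r _ =>
    (congrArg Subtype.val (Subgroup.mem_center_iff.mp hg ⟨_, C.xu_mem_group r 1⟩)).symm)

/-- The order of `Aut PΩ₈⁺`. -/
theorem card_aut_pomega_eight {p f : ℕ} [Fact p.Prime] (hF : Fintype.card F = p ^ f) (hf : 1 ≤ f) :
    Nat.card (MulAut (Cfsg.POmega F (Cfsg.quadFormPlus 4 F))) =
      6 * ((Fintype.card F - 1).gcd 2 * (Fintype.card F - 1).gcd 2) * f *
        Nat.card (Cfsg.POmega F (Cfsg.quadFormPlus 4 F)) := by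
  obtain ⟨C⟩ := nonempty_cert.{u} (D := chevD4) (by simp)
  obtain ⟨e⟩ := D4Q.chevD4_equiv_pomega (F := F)
  obtain ⟨r⟩ := AutPSL.exists_ringAut_equiv (F := F) (by rw [Nat.card_eq_fintype_card, hF]) hf
  haveI : NeZero f := ⟨by omega⟩
  rw [← Nat.card_congr (MulAut.congr e).toEquiv, ← Nat.card_congr e.toEquiv,
    card_mulAut center_bot, card_out_D4 C, Nat.card_congr r.toEquiv,
    Nat.card_congr Multiplicative.toAdd, Nat.card_zmod]

theorem gcd_two_even (h : Even (Fintype.card F)) : (Fintype.card F - 1).gcd 2 = 1 :=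
  Nat.Coprime.gcd_eq_one (Nat.coprime_two_right.mpr (Nat.Even.sub_odd Fintype.card_pos h odd_one))

theorem gcd_two_odd (h : Odd (Fintype.card F)) : (Fintype.card F - 1).gcd 2 = 2 :=
  Nat.gcd_eq_right (Nat.dvd_of_mod_eq_zero (by rw [Nat.odd_iff] at h; omega))

theorem out_pomega_even {p f : ℕ} [Fact p.Prime] (hF : Fintype.card F = p ^ f) (hf : 1 ≤ f)
    (h2 : Even (Fintype.card F)) :
    Nonempty (Cfsg.Out (Cfsg.POmega F (Cfsg.quadFormPlus 4 F)) ≃*
      Equiv.Perm (Fin 3) × Multiplicative (ZMod f)) := by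
  obtain ⟨C⟩ := nonempty_cert.{u} (D := chevD4) (by simp)
  obtain ⟨e⟩ := exists_out_equiv (F := F)
  obtain ⟨o⟩ := out_even C h2
  obtain ⟨r⟩ := AutPSL.exists_ringAut_equiv (F := F) (by rw [Nat.card_eq_fintype_card, hF]) hf
  exact ⟨(e.symm.trans o).trans ((MulEquiv.refl _).prodCongr r)⟩

theorem out_pomega_odd {p f : ℕ} [Fact p.Prime] (hF : Fintype.card F = p ^ f) (hf : 1 ≤ f)
    (h2 : Odd (Fintype.card F)) :
    Nonempty (Cfsg.Out (Cfsg.POmega F (Cfsg.quadFormPlus 4 F)) ≃*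
      Equiv.Perm (Fin 4) × Multiplicative (ZMod f)) := by
  obtain ⟨C⟩ := nonempty_cert.{u} (D := chevD4) (by simp)
  obtain ⟨e⟩ := exists_out_equiv (F := F)
  obtain ⟨o⟩ := out_odd C h2
  obtain ⟨r⟩ := AutPSL.exists_ringAut_equiv (F := F) (by rw [Nat.card_eq_fintype_card, hF]) hf
  exact ⟨(e.symm.trans o).trans ((MulEquiv.refl _).prodCongr r)⟩

end Cfsg.Agent.KnownB.D4
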